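import Mathlib
import Cfsg.Agent.Lib.H58.SLc
import Cfsg.Agent.Lib.H25.SL2Card

/-! The group `SL(2,16)` by generators and relations (helper58). -/

set_option autoImplicit false
set_option linter.style.haveILetI false
set_option linter.unusedSectionVars false

namespace H58.SL16

open Matrix Subgroup
open scoped MatrixGroups

/-- relations -/
structure Rels {M : Type*} [Group M] (X W H : M) : Prop where
  xx : X * X = 1
  ww : W * W = 1
  wh : W * H * W * H = 1
  xw : X * W * X * W * X * W = 1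
  h15 : H ^ 15 = 1
  r1 : H * H * H * H * X * H⁻¹ * H⁻¹ * H⁻¹ * H⁻¹ * X * H * X * H⁻¹ = 1
  r2 : X * H * X * H⁻¹ * X * H * X * H⁻¹ = 1

theorem Rels.map {M M' : Type*} [Group M] [Group M'] {X W H : M} (r : Rels X W H) (f : M →* M') : Rels (f X) (f W) (f H) where
  xx := by rw [← map_mul, r.xx, map_one]
  ww := by rw [← map_mul, r.ww, map_one]
  wh := by simp only [← map_mul]; rw [r.wh, map_one]
  xw := by simp only [← map_mul]; rw [r.xw, map_one]
  h15 := by rw [← map_pow, r.h15, map_one]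
  r1 := by simp only [← map_mul, ← map_inv]; rw [r.r1, map_one]
  r2 := by simp only [← map_mul, ← map_inv]; rw [r.r2, map_one]

theorem Rels.prod {M M' : Type*} [Group M] [Group M'] {X W H : M} {x w h : M'} (r : Rels X W H) (s : Rels x w h) :
    Rels ((X, x) : M × M') (W, w) (H, h) where
  xx := Prod.ext r.xx s.xx
  ww := Prod.ext r.ww s.ww
  wh := Prod.ext r.wh s.wh
  xw := Prod.ext r.xw s.xw
  h15 := Prod.ext r.h15 s.h15
  r1 := Prod.ext r.r1 s.r1
  r2 := Prod.ext r.r2 s.r2

theorem Rels.of_inj {M M' : Type*} [Group M] [Group M'] {X W H : M} (f : M →* M') (hf : Function.Injective f)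
    (r : Rels (f X) (f W) (f H)) : Rels X W H where
  xx := hf (by simpa only [map_mul, map_one] using r.xx)
  ww := hf (by simpa only [map_mul, map_one] using r.ww)
  wh := hf (by simpa only [map_mul, map_one] using r.wh)
  xw := hf (by simpa only [map_mul, map_one] using r.xw)
  h15 := hf (by simpa only [map_pow, map_one] using r.h15)
  r1 := hf (by simpa only [map_mul, map_one, map_inv] using r.r1)
  r2 := hf (by simpa only [map_mul, map_one, map_inv] using r.r2)

/-- letters -/
def el {M : Type*} [Group M] (X W H : M) : ℕ → M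
  | 0 => X
  | 1 => W
  | 2 => H
  | 3 => H⁻¹
  | _ => 1

theorem inv_of_sq {M : Type*} [Group M] {a : M} (h : a * a = 1) : a⁻¹ = a := inv_eq_of_mul_eq_one_left h

theorem el_inv {M : Type*} [Group M] {X W H : M} (r : Rels X W H) : ∀ g, el X W H (SLc.io g) = (el X W H g)⁻¹
  | 0 => (inv_of_sq r.xx).symm
  | 1 => (inv_of_sq r.ww).symm
  | 2 => rfl
  | 3 => (inv_inv H).symm
  | (n + 4) => by
      have : SLc.io (n + 4) = n + 4 := by
        unfold SLc.io SLc.ioL
        simp
      rw [this]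
      exact (inv_one (G := M)).symm

theorem base_ok {M : Type*} [Group M] {X W H : M} (r : Rels X W H) : ∀ w ∈ SLc.base, (w.map (el X W H)).prod = 1 := by
  intro w hw
  simp only [SLc.base, List.mem_cons, List.not_mem_nil, or_false] at hw
  rcases hw with rfl | rfl | rfl | rfl | rfl | rfl | rfl | rfl
  · simpa [el, mul_assoc] using r.xx
  · simpa [el, mul_assoc] using r.ww
  · simp [el]
  · simpa [el, mul_assoc] using r.wh
  · simpa [el, mul_assoc] using r.xw
  · have := r.h15
    simpa [el, mul_assoc, pow_succ] using this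
  · simpa [el, mul_assoc] using r.r1
  · simpa [el, mul_assoc] using r.r2

/-- the upper bound for the order -/
theorem card_le {M : Type*} [Group M] {X W H : M} (r : Rels X W H)
    (hgen : Subgroup.closure {x : M | ∃ g < 4, x = el X W H g} = ⊤) : Nat.card M ≠ 0 ∧ Nat.card M ≤ 4080 := by
  have h := SLc.upper (el X W H) (el_inv r) (base_ok r) hgen ⊥ (by
    intro w hw
    simp [SLc.hw] at hw)
  obtain ⟨h1, h2⟩ := h
  rw [Subgroup.index_bot] at h2
  refine ⟨?_, h2⟩
  rw [← Subgroup.index_bot]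
  exact h1.index_ne_zero

/-! ### The field -/

section Field

variable {K : Type*} [Field K]

theorem two_zero [Fintype K] (hK : Fintype.card K = 16) : (2 : K) = 0 := by
  have h1 : ((Fintype.card K : ℕ) : K) = 0 := by
    rw [← Nat.card_eq_fintype_card]
    have := Nat.card_eq_fintype_card (α := K)
    rw [this]
    exact Nat.cast_card_eq_zero K
  rw [hK] at h1
  have h2 : (2 : K) ^ 4 = 0 := by
    have : ((16 : ℕ) : K) = (2 : K) ^ 4 := by norm_num
    rw [← this]; exact h1
  exact pow_eq_zero_iff (n := 4) (by norm_num) |>.1 h2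

theorem exists_theta [Fintype K] (hK : Fintype.card K = 16) :
    ∃ θ : Kˣ, (∀ x : Kˣ, x ∈ Subgroup.zpowers θ) ∧ (θ : K) ^ 4 + (θ : K) + 1 = 0 := by
  classical
  have h2 := two_zero hK
  obtain ⟨g, hg⟩ : IsCyclic Kˣ := inferInstance
  have ho : orderOf g = 15 := by
    rw [orderOf_eq_card_of_forall_mem_zpowers hg, Nat.card_eq_fintype_card, Fintype.card_units, hK]
  have e15 : (g : K) ^ 15 - 1 = 0 := by
    have : g ^ 15 = 1 := by rw [← ho]; exact pow_orderOf_eq_one g
    have := congrArg Units.val this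
    simp only [Units.val_pow_eq_pow_val, Units.val_one] at this
    rw [this, sub_self]
  have hne : ∀ k, 0 < k → k < 15 → (g : K) ^ k - 1 ≠ 0 := by
    intro k hk0 hk h
    have h3 : g ^ k = 1 := Units.ext (by
      rw [Units.val_pow_eq_pow_val, Units.val_one]; exact sub_eq_zero.1 h)
    have := Nat.le_of_dvd hk0 (orderOf_dvd_of_pow_eq_one h3)
    omega
  have hfac : ((g : K) - 1) * ((g : K) ^ 2 + g + 1) * ((g : K) ^ 4 + (g : K) ^ 3 + (g : K) ^ 2 + g + 1) *
      ((g : K) ^ 4 + g + 1) * ((g : K) ^ 4 + (g : K) ^ 3 + 1) = 0 := by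
    linear_combination e15 + (-(g : K) - (g : K) ^ 2 - (g : K) ^ 3 - 2 * (g : K) ^ 4 - 2 * (g : K) ^ 5 - (g : K) ^ 6 + (g : K) ^ 9 +
      2 * (g : K) ^ 10 + 2 * (g : K) ^ 11 + (g : K) ^ 12 + (g : K) ^ 13 + (g : K) ^ 14) * h2
  rcases mul_eq_zero.1 hfac with h | h
  · rcases mul_eq_zero.1 h with h | h
    · rcases mul_eq_zero.1 h with h | h
      · exfalso
        rcases mul_eq_zero.1 h with h | h
        · exact hne 1 (by norm_num) (by norm_num) (by rw [pow_one]; exact h)
        · exact hne 3 (by norm_num) (by norm_num) (by linear_combination ((g : K) - 1) * h)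
      · exfalso
        exact hne 5 (by norm_num) (by norm_num) (by linear_combination ((g : K) - 1) * h)
    · exact ⟨g, hg, h⟩
  · refine ⟨g⁻¹, fun x => ?_, ?_⟩
    · rw [Subgroup.zpowers_inv]; exact hg x
    · have hg0 : (g : K) ≠ 0 := g.ne_zero
      rw [Units.val_inv_eq_inv_val]
      field_simp
      linear_combination h

/-- upper unipotent elements -/
def x (a : K) : SL(2, K) := ⟨!![1, a; 0, 1], by simp⟩
/-- the Weyl element -/
def w : SL(2, K) := ⟨!![0, 1; -1, 0], by simp⟩
/-- diagonal elements -/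
def h (u : Kˣ) : SL(2, K) := ⟨!![(u : K), 0; 0, ((u⁻¹ : Kˣ) : K)], by simp⟩

theorem coe_x (a : K) : ((x a : SL(2, K)) : Matrix (Fin 2) (Fin 2) K) = !![1, a; 0, 1] := rfl
theorem coe_w : ((w : SL(2, K)) : Matrix (Fin 2) (Fin 2) K) = !![0, 1; -1, 0] := rfl
theorem coe_h (u : Kˣ) : ((h u : SL(2, K)) : Matrix (Fin 2) (Fin 2) K) = !![(u : K), 0; 0, ((u⁻¹ : Kˣ) : K)] := rfl

theorem x_mul (a b : K) : x a * x b = x (a + b) := by
  apply Matrix.SpecialLinearGroup.ext
  intro i j
  simp only [Matrix.SpecialLinearGroup.coe_mul, coe_x]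
  fin_cases i <;> fin_cases j <;> simp [Matrix.mul_apply, Fin.sum_univ_two, add_comm]

theorem h_mul (u v : Kˣ) : h u * h v = h (u * v) := by
  apply Matrix.SpecialLinearGroup.ext
  intro i j
  simp only [Matrix.SpecialLinearGroup.coe_mul, coe_h]
  fin_cases i <;> fin_cases j <;> simp [Matrix.mul_apply, Fin.sum_univ_two, mul_comm]

theorem h_one : h (1 : Kˣ) = 1 := by
  ext i j; fin_cases i <;> fin_cases j <;> simp [h]

/-- the torus as a homomorphism -/
def hh : Kˣ →* SL(2, K) where
  toFun := h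
  map_one' := h_one
  map_mul' u v := (h_mul u v).symm

theorem h_inv (u : Kˣ) : (h u)⁻¹ = h u⁻¹ := (map_inv (hh (K := K)) u).symm
theorem h_pow (u : Kˣ) (n : ℕ) : (h u) ^ n = h (u ^ n) := (map_pow (hh (K := K)) u n).symm
theorem h_zpow (u : Kˣ) (n : ℤ) : (h u) ^ n = h (u ^ n) := (map_zpow (hh (K := K)) u n).symm

theorem h_x (u : Kˣ) (a : K) : h u * x a * (h u)⁻¹ = x (a * (u : K) ^ 2) := by
  rw [h_inv]
  apply Matrix.SpecialLinearGroup.ext
  intro i j
  simp only [Matrix.SpecialLinearGroup.coe_mul, coe_h, coe_x]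
  fin_cases i <;> fin_cases j <;> simp [Matrix.mul_apply, Fin.sum_univ_two]
  ring

theorem x_inj {a b : K} (e : (x a : SL(2, K)) = x b) : a = b := by
  have := congrArg (fun g : SL(2, K) => (g : Matrix (Fin 2) (Fin 2) K) 0 1) e
  simpa [x] using this

theorem rels [Fintype K] (hK : Fintype.card K = 16) (θ : Kˣ) (hθ : (θ : K) ^ 4 + (θ : K) + 1 = 0) :
    Rels (x (1 : K)) w (h θ) := by
  have h2 := two_zero hK
  have hneg : ∀ a : K, -a = a := fun a => by linear_combination (-a) * h2
  have hx0 : x (0 : K) = 1 := by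
    ext i j; fin_cases i <;> fin_cases j <;> simp [x]
  have xx : x (1 : K) * x 1 = 1 := by
    rw [x_mul, one_add_one_eq_two, h2, hx0]
  have hs : ∀ a b : K, x a * x b = x b * x a := fun a b => by rw [x_mul, x_mul, add_comm]
  have hconj : ∀ n : ℕ, h θ ^ n * x 1 * (h θ ^ n)⁻¹ = x (((θ : K) ^ 2) ^ n) := by
    intro n
    rw [h_pow, h_x, one_mul, Units.val_pow_eq_pow_val]
    congr 1
    ring
  have c1 := hconj 1
  rw [pow_one, pow_one] at c1
  have c4 := hconj 4
  have e4 : ((θ : K) ^ 2) ^ 4 = (θ : K) ^ 2 + 1 := by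
    linear_combination ((θ : K) ^ 4 + (θ : K) + 1 ) * hθ - ((θ : K) + 1 + (θ : K) ^ 4 + (θ : K)^5 + (θ : K) ^ 2) * h2
  have h11 : (1 : K) + 1 = 0 := by rw [one_add_one_eq_two, h2]
  refine ⟨xx, ?_, ?_, ?_, ?_, ?_, ?_⟩
  · apply Matrix.SpecialLinearGroup.ext
    intro i j
    simp only [Matrix.SpecialLinearGroup.coe_mul, coe_w, Matrix.SpecialLinearGroup.coe_one]
    fin_cases i <;> fin_cases j <;> simp [Matrix.mul_apply, Fin.sum_univ_two, hneg]
  · apply Matrix.SpecialLinearGroup.ext
    intro i j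
    simp only [Matrix.SpecialLinearGroup.coe_mul, coe_w, coe_h, Matrix.SpecialLinearGroup.coe_one]
    fin_cases i <;> fin_cases j <;> simp [Matrix.mul_apply, Fin.sum_univ_two, hneg]
  · apply Matrix.SpecialLinearGroup.ext
    intro i j
    simp only [Matrix.SpecialLinearGroup.coe_mul, coe_w, coe_x, Matrix.SpecialLinearGroup.coe_one]
    fin_cases i <;> fin_cases j <;> simp [Matrix.mul_apply, Fin.sum_univ_two, hneg, h11]
  · rw [h_pow]
    have : θ ^ 15 = 1 := by
      classical
      have h3 := pow_card_eq_one (G := Kˣ) (x := θ)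
      rwa [Fintype.card_units, hK] at h3
    rw [this, h_one]
  · have h5 : h θ * h θ * h θ * h θ * x 1 * (h θ)⁻¹ * (h θ)⁻¹ * (h θ)⁻¹ * (h θ)⁻¹ * x 1 * h θ * x 1 * (h θ)⁻¹ =
        (h θ ^ 4 * x 1 * (h θ ^ 4)⁻¹) * x 1 * (h θ * x 1 * (h θ)⁻¹) := by
      simp only [pow_succ, pow_zero, one_mul, _root_.mul_inv_rev, mul_assoc]
    rw [h5, c4, c1, e4, x_mul, x_mul]
    have h6 : (θ : K) ^ 2 + 1 + 1 + (θ : K) ^ 2 = 0 := by linear_combination ((θ : K) ^ 2 + 1) * h2
    rw [h6, hx0]
  · have h5 : x (1 : K) * h θ * x 1 * (h θ)⁻¹ * x 1 * h θ * x 1 * (h θ)⁻¹ =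
        x 1 * (h θ * x 1 * (h θ)⁻¹) * x 1 * (h θ * x 1 * (h θ)⁻¹) := by
      simp only [mul_assoc]
    rw [h5, c1, x_mul, x_mul, x_mul]
    have h6 : (1 : K) + (θ : K) ^ 2 + 1 + (θ : K) ^ 2 = 0 := by linear_combination ((θ : K) ^ 2 + 1) * h2
    rw [h6, hx0]

theorem gen [Fintype K] (hK : Fintype.card K = 16) (θ : Kˣ) (hθ : ∀ u : Kˣ, u ∈ Subgroup.zpowers θ)
    {S : Subgroup SL(2, K)} (hx : x 1 ∈ S) (hw : w ∈ S) (hh : h θ ∈ S) : S = ⊤ := by
  have h2 := two_zero hK
  have hneg : ∀ a : K, -a = a := fun a => by linear_combination (-a) * h2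
  have hX : ∀ a : K, x a ∈ S := by
    intro a
    by_cases ha : a = 0
    · have hx0 : x (0 : K) = 1 := by
        ext i j; fin_cases i <;> fin_cases j <;> simp [x]
      rw [ha, hx0]; exact one_mem _
    · obtain ⟨n, hn⟩ := Subgroup.mem_zpowers_iff.1 (hθ (Units.mk0 a ha ^ 8))
      have h16 : (Units.mk0 a ha) ^ 16 = Units.mk0 a ha := by
        have h3 : (Units.mk0 a ha) ^ 15 = 1 := by
          classical
          have := pow_card_eq_one (G := Kˣ) (x := Units.mk0 a ha)
          rwa [Fintype.card_units, hK] at this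
        rw [pow_succ, h3, one_mul]
      have h4 : (1 : K) * (((θ ^ n : Kˣ)) : K) ^ 2 = a := by
        rw [hn, one_mul, ← Units.val_pow_eq_pow_val, ← pow_mul, h16, Units.val_mk0]
      have h5 := h_x (θ ^ n) (1 : K)
      rw [h4] at h5
      rw [← h5, ← h_zpow]
      exact mul_mem (mul_mem (zpow_mem hh n) hx) (inv_mem (zpow_mem hh n))
  rw [eq_top_iff]
  intro g _
  refine SL2.transvection_induction (fun g => g ∈ S) ?_ (fun _ _ => mul_mem) g
  intro i j hij c
  fin_cases i <;> fin_cases j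
  · exact absurd rfl hij
  · have : SpecialLinearGroup.transvection hij c = x c := by
      ext i j; fin_cases i <;> fin_cases j <;> simp [x, SpecialLinearGroup.transvection_coe]
    rw [this]; exact hX c
  · have : SpecialLinearGroup.transvection hij c = w * x c * w := by
      apply Matrix.SpecialLinearGroup.ext
      intro i j
      simp only [Matrix.SpecialLinearGroup.coe_mul, coe_w, coe_x, SpecialLinearGroup.transvection_coe]
      fin_cases i <;> fin_cases j <;> simp [Matrix.mul_apply, Fin.sum_univ_two, hneg]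
    rw [this]; exact mul_mem (mul_mem hw (hX c)) hw
  · exact absurd rfl hij

/-- the homomorphism defined by relations -/
theorem exists_hom [Fintype K] (hK : Fintype.card K = 16) (θ : Kˣ) (hθ : ∀ u : Kˣ, u ∈ Subgroup.zpowers θ)
    (hθ4 : (θ : K) ^ 4 + (θ : K) + 1 = 0) {M : Type*} [Group M] {X W H : M} (r : Rels X W H) :
    ∃ φ : SL(2, K) →* M, φ (x 1) = X ∧ φ w = W ∧ φ (h θ) = H := by
  classical
  set s : Set (M × SL(2, K)) := {p | ∃ g < 4, p = el ((X, x 1) : M × SL(2, K)) (W, w) (H, h θ) g} with hs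
  set Γ : Subgroup (M × SL(2, K)) := Subgroup.closure s with hΓ
  have m0 : ((X, x 1) : M × SL(2, K)) ∈ Γ := Subgroup.subset_closure ⟨0, by norm_num, rfl⟩
  have m1 : ((W, w) : M × SL(2, K)) ∈ Γ := Subgroup.subset_closure ⟨1, by norm_num, rfl⟩
  have m2 : ((H, h θ) : M × SL(2, K)) ∈ Γ := Subgroup.subset_closure ⟨2, by norm_num, rfl⟩
  have r2 : Rels ((X, x 1) : M × SL(2, K)) (W, w) (H, h θ) := r.prod (rels hK θ hθ4)
  have r3 : Rels (⟨_, m0⟩ : Γ) ⟨_, m1⟩ ⟨_, m2⟩ := Rels.of_inj Γ.subtype Γ.subtype_injective r2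
  have hel : ∀ g, ((el (⟨_, m0⟩ : Γ) ⟨_, m1⟩ ⟨_, m2⟩ g : Γ) : M × SL(2, K)) = el ((X, x 1) : M × SL(2, K)) (W, w) (H, h θ) g
    | 0 => rfl
    | 1 => rfl
    | 2 => rfl
    | 3 => rfl
    | (n + 4) => rfl
  have hset : {y : Γ | ∃ g < 4, y = el (⟨_, m0⟩ : Γ) ⟨_, m1⟩ ⟨_, m2⟩ g} = ((↑) : Γ → M × SL(2, K)) ⁻¹' s := by
    ext y
    constructor
    · rintro ⟨g, hg, rfl⟩
      exact ⟨g, hg, hel g⟩
    · rintro ⟨g, hg, hy⟩
      exact ⟨g, hg, Subtype.ext (by rw [hy, hel])⟩
  have hgen : Subgroup.closure {y : Γ | ∃ g < 4, y = el (⟨_, m0⟩ : Γ) ⟨_, m1⟩ ⟨_, m2⟩ g} = ⊤ := by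
    rw [hset]
    exact Subgroup.closure_closure_coe_preimage
  obtain ⟨c1, c2⟩ := card_le r3 hgen
  have hfin : Finite Γ := Nat.finite_of_card_ne_zero c1
  set π : Γ →* SL(2, K) := (MonoidHom.snd M SL(2, K)).comp Γ.subtype with hπ
  have hcK : Nat.card SL(2, K) = 4080 := by
    rw [H25.SL2Card.card_SL2, hK]; norm_num
  have hsurj : Function.Surjective π := by
    rw [← MonoidHom.range_eq_top]
    exact gen hK θ hθ ⟨⟨_, m0⟩, rfl⟩ ⟨⟨_, m1⟩, rfl⟩ ⟨⟨_, m2⟩, rfl⟩
  have hbij : Function.Bijective π := hsurj.bijective_of_nat_card_le (by rw [hcK]; exact c2)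
  let e := MulEquiv.ofBijective π hbij
  have he : ∀ y : Γ, e.symm (π y) = y := fun y => e.symm_apply_apply y
  refine ⟨(MonoidHom.fst M SL(2, K)).comp (Γ.subtype.comp e.symm.toMonoidHom), ?_, ?_, ?_⟩
  · change ((e.symm (π ⟨_, m0⟩) : Γ) : M × SL(2, K)).1 = X
    rw [he]
  · change ((e.symm (π ⟨_, m1⟩) : Γ) : M × SL(2, K)).1 = W
    rw [he]
  · change ((e.symm (π ⟨_, m2⟩) : Γ) : M × SL(2, K)).1 = H
    rw [he]

theorem normal_bot_or_top [Fintype K] (hK : Fintype.card K = 16) (N : Subgroup SL(2, K)) (hN : N.Normal) : N = ⊥ ∨ N = ⊤ := by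
  have h2 := two_zero hK
  have hcen : Subgroup.center SL(2, K) = ⊥ := by
    rw [eq_bot_iff]
    intro g hg
    obtain ⟨r, hr, hrg⟩ := Matrix.SpecialLinearGroup.mem_center_iff.1 hg
    have h1 : r = 1 := by
      rw [Fintype.card_fin] at hr
      have : (r - 1) ^ 2 = 0 := by linear_combination hr - (r - 1) * h2
      exact sub_eq_zero.1 (pow_eq_zero_iff (n := 2) (by norm_num) |>.1 this)
    rw [Subgroup.mem_bot]
    apply Matrix.SpecialLinearGroup.ext
    intro i j
    rw [← hrg, h1]
    simp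
  have hsimple : IsSimpleGroup PSL(2, K) := Matrix.ProjectiveSpecialLinearGroup.rank_two_simple (by
    rw [Nat.card_eq_fintype_card, hK]; norm_num)
  have hs := QuotientGroup.mk'_surjective (Subgroup.center SL(2, K))
  have hN' : (N.map (QuotientGroup.mk' (Subgroup.center SL(2, K)))).Normal := hN.map _ hs
  rcases hN'.eq_bot_or_eq_top with h | h
  · left
    rw [eq_bot_iff]
    intro g hg
    have h3 : (QuotientGroup.mk' (Subgroup.center SL(2, K))) g ∈ N.map (QuotientGroup.mk' (Subgroup.center SL(2, K))) := ⟨g, hg, rfl⟩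
    rw [h, Subgroup.mem_bot] at h3
    have h4 := (QuotientGroup.eq_one_iff g).1 h3
    rw [hcen] at h4
    exact h4
  · right
    rw [eq_top_iff]
    intro g _
    have h3 : (QuotientGroup.mk' (Subgroup.center SL(2, K))) g ∈ N.map (QuotientGroup.mk' (Subgroup.center SL(2, K))) := by
      rw [h]; exact Subgroup.mem_top _
    obtain ⟨n, hn, hng⟩ := h3
    have h4 : n⁻¹ * g ∈ Subgroup.center SL(2, K) := QuotientGroup.eq.1 hng
    rw [hcen, Subgroup.mem_bot, inv_mul_eq_one] at h4
    rw [← h4]; exact hn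

theorem hom_inj [Fintype K] (hK : Fintype.card K = 16) {M : Type*} [Group M] (φ : SL(2, K) →* M) (hx : φ (x 1) ≠ 1) :
    Function.Injective φ := by
  rw [← MonoidHom.ker_eq_bot_iff]
  rcases normal_bot_or_top hK φ.ker inferInstance with h | h
  · exact h
  · exfalso
    apply hx
    rw [← MonoidHom.mem_ker, h]
    exact Subgroup.mem_top _

end Field

/-- the extension `SL(2,16):2` -/
theorem main {K : Type} [Field K] [Fintype K] (hK : Fintype.card K = 16) {M : Type*} [Group M] {X W H U : M} (r : Rels X W H)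
    (hX : X ≠ 1) (UU : U * U = 1) (UX : U * X * U = X) (UW : U * W * U = W) (UH : U * H * U = H ^ 4) :
    ∃ (S : Subgroup M) (N : Subgroup S), N.Normal ∧ N.index = 2 ∧ Nonempty (N ≃* SL(2, K)) := by
  classical
  have h2 := two_zero hK
  obtain ⟨θ, hθ, hθ4⟩ := exists_theta hK
  obtain ⟨φ, f1, f2, f3⟩ := exists_hom hK θ hθ hθ4 r
  have hinj := hom_inj hK φ (by rw [f1]; exact hX)
  set R := φ.range with hR
  have mX : X ∈ R := ⟨_, f1⟩
  have mW : W ∈ R := ⟨_, f2⟩
  have mH : H ∈ R := ⟨_, f3⟩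
  have Ui : U⁻¹ = U := inv_of_sq UU
  -- `U` normalizes `R`
  have hnorm : ∀ y ∈ R, U * y * U ∈ R := by
    rintro y ⟨g, rfl⟩
    have : (R.map (MulAut.conj U).toMonoidHom).comap φ = ⊤ ∨ True := Or.inr trivial
    have h3 : (R.comap (MulAut.conj U).toMonoidHom).comap φ = ⊤ := by
      apply gen hK θ hθ
      · change U * φ (x 1) * U⁻¹ ∈ R
        rw [f1, Ui, UX]; exact mX
      · change U * φ w * U⁻¹ ∈ R
        rw [f2, Ui, UW]; exact mW
      · change U * φ (h θ) * U⁻¹ ∈ R
        rw [f3, Ui, UH]; exact pow_mem mH 4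
    have h4 : g ∈ (R.comap (MulAut.conj U).toMonoidHom).comap φ := by rw [h3]; exact Subgroup.mem_top _
    have h5 : U * φ g * U⁻¹ ∈ R := h4
    rwa [Ui] at h5
  -- `U` is not in `R`
  have hU : U ∉ R := by
    rintro ⟨g, hg⟩
    have e1 : g * x 1 = x 1 * g := by
      apply hinj
      rw [map_mul, map_mul, hg, f1]
      calc U * X = U * X * (U * U) := by rw [UU, mul_one]
        _ = (U * X * U) * U := by group
        _ = X * U := by rw [UX]
    have e2 : g * w = w * g := by
      apply hinj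
      rw [map_mul, map_mul, hg, f2]
      calc U * W = U * W * (U * U) := by rw [UU, mul_one]
        _ = (U * W * U) * U := by group
        _ = W * U := by rw [UW]
    have e3 : g * h θ * g = h θ ^ 4 := by
      apply hinj
      rw [map_mul, map_mul, map_pow, hg, f3, UH]
    have e4 : g * g = 1 := by
      apply hinj
      rw [map_mul, map_one, hg, UU]
    -- `g` is scalar
    have c10 : (g : Matrix (Fin 2) (Fin 2) K) 1 0 = 0 := by
      have := congrArg (fun y : SL(2, K) => (y : Matrix (Fin 2) (Fin 2) K) 0 0) e1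
      simp only [Matrix.SpecialLinearGroup.coe_mul, coe_x] at this
      simpa [Matrix.mul_apply, Fin.sum_univ_two] using this
    have c01 : (g : Matrix (Fin 2) (Fin 2) K) 0 1 = 0 := by
      have := congrArg (fun y : SL(2, K) => (y : Matrix (Fin 2) (Fin 2) K) 0 0) e2
      simp only [Matrix.SpecialLinearGroup.coe_mul, coe_w] at this
      simp [Matrix.mul_apply, Fin.sum_univ_two, c10] at this
      exact this
    have e5 : g * h θ = h θ * g := by
      apply Matrix.SpecialLinearGroup.ext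
      intro i j
      simp only [Matrix.SpecialLinearGroup.coe_mul, coe_h]
      fin_cases i <;> fin_cases j <;> simp [Matrix.mul_apply, Fin.sum_univ_two, c10, c01, mul_comm]
    have e6 : h θ = h θ ^ 4 := by
      calc h θ = h θ * (g * g) := by rw [e4, mul_one]
        _ = (h θ * g) * g := by group
        _ = (g * h θ) * g := by rw [e5]
        _ = _ := e3
    have e7 : (θ : K) = (θ : K) ^ 4 := by
      rw [h_pow] at e6
      have := congrArg (fun y : SL(2, K) => (y : Matrix (Fin 2) (Fin 2) K) 0 0) e6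
      simpa [h] using this
    have e8 : (1 : K) = 0 := by linear_combination hθ4 - (θ : K) * h2 + e7
    exact one_ne_zero e8
  -- the group `S`
  have hconj : ∀ a ∈ R, ∃ b ∈ R, U * a = b * U := fun a ha => ⟨U * a * U, hnorm a ha, by
    rw [mul_assoc (U * a), UU, mul_one]⟩
  let S : Subgroup M :=
    { carrier := {m | m ∈ R ∨ m * U ∈ R}
      mul_mem' := by
        rintro a b (ha | ha) (hb | hb)
        · exact Or.inl (mul_mem ha hb)
        · exact Or.inr (by rw [mul_assoc]; exact mul_mem ha hb)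
        · right
          have h1 := hnorm b hb
          have : a * b * U = (a * U) * (U * b * U) := by
            calc a * b * U = a * (1) * b * U := by group
              _ = a * (U * U) * b * U := by rw [UU]
              _ = _ := by group
          rw [this]; exact mul_mem ha h1
        · left
          have h1 := hnorm _ hb
          have : a * b = (a * U) * (U * (b * U) * U) := by
            calc a * b = a * 1 * b * 1 := by group
              _ = a * (U * U) * b * (U * U) := by rw [UU]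
              _ = _ := by group
          rw [this]; exact mul_mem ha h1
      one_mem' := Or.inl (one_mem _)
      inv_mem' := by
        rintro a (ha | ha)
        · exact Or.inl (inv_mem ha)
        · right
          have h1 := hnorm _ (inv_mem ha)
          have : a⁻¹ * U = U * (a * U)⁻¹ * U := by
            rw [_root_.mul_inv_rev, Ui, ← mul_assoc, UU, one_mul]
          rw [this]; exact h1 }
  have hRS : R ≤ S := fun a ha => Or.inl ha
  have hUS : U ∈ S := Or.inr (by rw [UU]; exact one_mem _)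
  have hidx : (R.subgroupOf S).index = 2 := by
    rw [Subgroup.index_eq_two_iff]
    refine ⟨⟨U, hUS⟩, fun b => ?_⟩
    rw [Subgroup.mem_subgroupOf, Subgroup.mem_subgroupOf]
    change Xor' ((b : M) * U ∈ R) ((b : M) ∈ R)
    rcases b.2 with hb | hb
    · right
      refine ⟨hb, fun h3 => hU ?_⟩
      have : U = (b : M)⁻¹ * ((b : M) * U) := by group
      rw [this]; exact mul_mem (inv_mem hb) h3
    · left
      refine ⟨hb, fun h3 => hU ?_⟩
      have : U = (b : M)⁻¹ * ((b : M) * U) := by group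
      rw [this]; exact mul_mem (inv_mem h3) hb
  refine ⟨S, R.subgroupOf S, ?_, hidx, ?_⟩
  · exact Subgroup.normal_of_index_eq_two hidx
  · exact ⟨(Subgroup.subgroupOfEquivOfLe hRS).trans (MonoidHom.ofInjective hinj).symm⟩

end H58.SL16
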