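import Mathlib
import Cfsg.Agent.Lib.H58.SL16
import Cfsg.Agent.Lib.H10.BitGrp
import Cfsg.Agent.Lib.H10.J3Simple2

/-! The subgroup `SL(2,16):2` of `J_3` (helper58). -/

set_option autoImplicit false
set_option linter.style.haveILetI false
set_option linter.unusedSectionVars false
set_option maxRecDepth 100000

namespace H58.SL16J

open H10.BitPar H10.BitOrb H10.J3Data H10.J3Data2 H10.J3Model H10.J3Comp H10.J3Order Cfsg.Spor H58.SL16

def xW : List ℕ := [40,23,37,19,10,31,40,5,23,37,10,31,40,5,23,37,10,31,40,40,23,37,19,10,31,40,5,23,37,10,31,40,5,23,37,10,31,40,5,23,37,10,31,40,40,23,37,19,10,31,40,5,23,37,10,31,40,5,23,37,10,31,40,5,23,37,10,31,40,5,23,37,10,31,40,40,23,37,19,10,31,40,5,23,37,10,31,40,5,23,37,10,31,40,5,23,37,10,31,40]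
def xO : List (ℕ × ℕ) := [(14,17),(10,17),(9,17),(8,17),(7,17),(6,17),(5,17),(4,17),(3,17),(2,17),(15,16),(14,16),(11,16),(10,16),(9,16),(7,16),(5,16),(3,16),(17,15),(16,15),(13,15),(12,15),(9,15),(7,15),(6,15),(4,15),(1,15),(0,15),(17,14),(13,14),(8,14),(7,14),(5,14),(4,14),(1,14),(17,13),(14,13),(10,13),(7,13),(6,13),(5,13),(4,13),(1,13),(0,13),(16,12),(15,12),(14,12),(11,12),(10,12),(7,12),(5,12),(1,12),(15,11),(13,11),(12,11),(7,11),(6,11),(4,11),(3,11),(2,11),(1,11),(0,11),(14,10),(13,10),(7,10),(5,10),(4,10),(3,10),(1,10),(17,9),(15,9),(2,9),(1,9),(16,8),(14,8),(3,8),(2,8),(0,8),(17,7),(15,7),(14,7),(13,7),(12,7),(10,7),(5,7),(3,7),(2,7),(16,6),(15,6),(13,6),(11,6),(10,6),(4,6),(3,6),(17,5),(16,5),(13,5),(12,5),(11,5),(7,5),(3,5),(2,5),(1,5),(17,4),(13,4),(10,4),(6,4),(3,4),(0,4),(16,3),(13,3),(11,3),(10,3),(9,3),(8,3),(4,3),(0,3),(17,2),(16,2),(12,2),(11,2),(9,2),(5,2),(4,2),(1,2),(0,2),(14,1),(13,1),(12,1),(11,1),(9,1),(8,1),(7,1),(3,1),(2,1),(15,0),(14,0),(13,0),(10,0),(9,0),(6,0),(3,0)]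
def wW : List ℕ := [5,23,37,10,31,40,40,23,37,19,10,31,40,5,23,37,10,31,40,5,23,37,10,31,40,5,23,37,10,31,40,5,23,37,10,31,40,40,23,37,19,10,31,40,5,23,37,10,31,40,5,23,37,10,31,40,5,23,37,10,31,40,40,23,37,19,10,31,40,5,23,37,10,31,40,5,23,37,10,31,40,40,23,37,19,10,31,40,5,23,37,10,31,40,5,23,37,10,31,40]
def wO : List (ℕ × ℕ) := [(15,17),(11,17),(10,17),(9,17),(8,17),(7,17),(6,17),(2,17),(1,17),(14,16),(11,16),(9,16),(7,16),(3,16),(2,16),(0,16),(17,15),(13,15),(11,15),(8,15),(7,15),(3,15),(16,14),(12,14),(10,14),(9,14),(8,14),(6,14),(2,14),(15,13),(14,13),(8,13),(7,13),(6,13),(5,13),(4,13),(0,13),(17,12),(13,12),(10,12),(8,12),(6,12),(4,12),(2,12),(1,12),(0,12),(16,11),(14,11),(12,11),(10,11),(8,11),(7,11),(5,11),(3,11),(2,11),(11,12),(17,10),(15,10),(13,10),(9,10),(7,10),(6,10),(5,10),(4,10),(2,10),(10,13),(17,9),(16,9),(14,9),(13,9),(12,9),(10,9),(7,9),(6,9),(5,9),(4,9),(3,9),(1,9),(0,9),(17,8),(15,8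),(14,8),(13,8),(11,8),(10,8),(7,8),(5,8),(2,8),(1,8),(16,7),(15,7),(14,7),(4,7),(17,6),(16,6),(15,6),(7,6),(5,6),(4,6),(6,7),(16,5),(15,5),(14,5),(13,5),(12,5),(8,5),(7,5),(4,5),(3,5),(1,5),(5,7),(17,4),(14,4),(12,4),(9,4),(7,4),(6,4),(3,4),(2,4),(1,4),(0,4),(4,6),(17,3),(16,3),(14,3),(12,3),(10,3),(9,3),(8,3),(7,3),(4,3),(17,2),(16,2),(15,2),(13,2),(12,2),(8,2),(3,2),(0,2),(17,1),(16,1),(15,1),(14,1),(11,1),(9,1),(7,1),(6,1),(5,1),(2,1),(0,1),(1,2),(16,0),(14,0),(11,0),(10,0),(9,0),(8,0),(6,0),(5,0),(4,0),(3,0),(0,3)]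
def vW : List ℕ := [40,23,37,19,10,31,40]
def vO : List (ℕ × ℕ) := [(14,17),(9,17),(6,17),(5,17),(2,17),(17,16),(15,16),(11,16),(10,16),(7,16),(3,16),(1,16),(16,15),(14,15),(11,15),(9,15),(8,15),(7,15),(6,15),(5,15),(4,15),(3,15),(2,15),(0,15),(15,16),(17,14),(11,14),(10,14),(8,14),(6,14),(4,14),(2,14),(1,14),(14,17),(17,13),(14,13),(11,13),(8,13),(6,13),(5,13),(4,13),(1,13),(16,12),(15,12),(14,12),(13,12),(10,12),(9,12),(8,12),(7,12),(6,12),(5,12),(0,12),(12,13),(13,11),(10,11),(5,11),(4,11),(3,11),(11,13),(13,10),(12,10),(4,10),(3,10),(2,10),(10,12),(16,9),(7,9),(0,9),(17,8),(16,8),(6,8),(1,8),(0,8),(16,7),(15,7),(13,7),(12,7),(9,7),(5,7),(4,7),(2,7),(0,7),(7,9),(17,6),(16,6),(14,6),(13,6),(8,6),(5,6),(3,6),(2,6),(1,6),(0,6),(6,8),(17,5),(16,5),(14,5),(13,5),(12,5),(11,5),(8,5),(6,5),(3,5),(1,5),(0,5),(17,4),(15,4),(14,4),(13,4),(10,4),(9,4),(8,4),(7,4),(6,4),(2,4),(1,4),(16,3),(14,3),(13,3),(9,3),(7,3),(6,3),(4,3),(1,3),(17,2),(16,2),(15,2),(14,2),(12,2),(8,2),(7,2),(5,2),(4,2),(3,2),(0,2),(2,3),(17,1),(16,1),(15,1),(10,1),(9,1),(7,1),(5,1),(3,1),(0,1),(1,3),(16,0),(15,0),(14,0),(11,0),(9,0),(8,0),(7,0),(6,0),(5,0),(4,0),(3,0),(2,0),(0,2)]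
def uW : List ℕ := [5,23,37,10,31,40,5,23,37,10,31,40,5,23,37,10,31,40]
def uO : List (ℕ × ℕ) := [(13,17),(10,17),(9,17),(8,17),(6,17),(2,17),(1,17),(12,16),(11,16),(10,16),(9,16),(7,16),(6,16),(3,16),(2,16),(0,16),(17,15),(16,15),(12,15),(8,15),(7,15),(2,15),(17,14),(13,14),(12,14),(9,14),(8,14),(6,14),(3,14),(2,14),(17,13),(10,13),(7,13),(6,13),(5,13),(4,13),(3,13),(2,13),(1,13),(16,12),(11,12),(10,12),(7,12),(5,12),(3,12),(0,12),(13,11),(12,11),(6,11),(5,11),(3,11),(2,11),(13,10),(7,10),(6,10),(4,10),(3,10),(17,9),(15,9),(14,9),(12,9),(10,9),(6,9),(4,9),(3,9),(1,9),(15,8),(13,8),(12,8),(11,8),(10,8),(9,8),(5,8),(2,8),(0,8),(15,7),(5,7),(4,7),(1,7),(0,7),(7,15),(14,6),(5,6),(1,6),(6,14),(17,5),(12,5),(10,5),(6,5),(1,5),(16,4),(13,4),(12,4),(11,4),(10,4),(7,4),(6,4),(0,4),(15,3),(13,3),(6,3),(5,3),(1,3),(0,3),(3,5),(14,2),(12,2),(7,2),(6,2),(4,2),(1,2),(2,4),(17,1),(16,1),(15,1),(8,1),(0,1),(1,8),(16,0),(15,0),(14,0),(9,0),(0,9)]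

theorem sx : sameW xW xO = true := by decide +kernel
theorem sw : sameW wW wO = true := by decide +kernel
theorem sv : sameW vW vO = true := by decide +kernel
theorem su : sameW uW uO = true := by decide +kernel
theorem okx : okOps 18 xO = true := by decide +kernel
theorem okw : okOps 18 wO = true := by decide +kernel
theorem okv : okOps 18 vO = true := by decide +kernel
theorem oku : okOps 18 uO = true := by decide +kernel

def letter : ℕ → List (ℕ × ℕ) := fun n => [xO, wO, vO, uO].getD n []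

theorem ok_letter : ∀ n, okOps 18 (letter n) = true
  | 0 => okx
  | 1 => okw
  | 2 => okv
  | 3 => oku
  | (_ + 4) => rfl

/-- operations of a word (group order) -/
def ops (l : List ℕ) : List (ℕ × ℕ) := List.rec (motive := fun _ => List (ℕ × ℕ)) [] (fun a _ ih => ih ++ letter a) l

def rel (l : List ℕ) : Bool := sameOps 18 (ops l) []

theorem k1 : rel [0, 0] = true := by decide +kernel
theorem k2 : rel [1, 1] = true := by decide +kernel
theorem k3 : rel [2, 2] = true := by decide +kernel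
theorem k4 : rel [3, 3] = true := by decide +kernel
theorem k5 : rel [0, 1, 0, 1, 0, 1] = true := by decide +kernel
theorem k6 : rel [1, 2, 1, 2, 1, 2, 1, 2, 1, 2, 1, 2, 1, 2, 1, 2, 1, 2, 1, 2, 1, 2, 1, 2, 1, 2, 1, 2, 1, 2] = true := by decide +kernel
theorem k7 : rel [1, 2, 1, 2, 1, 2, 1, 2, 0, 2, 1, 2, 1, 2, 1, 2, 1, 0, 1, 2, 0, 2, 1] = true := by decide +kernel
theorem k8 : rel [0, 1, 2, 0, 2, 1, 0, 1, 2, 0, 2, 1] = true := by decide +kernel
theorem k9 : rel [3, 0, 3, 0] = true := by decide +kernel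
theorem k10 : rel [3, 1, 3, 1] = true := by decide +kernel
theorem k11 : rel [3, 1, 2, 3, 2, 1, 2, 1, 2, 1, 2, 1] = true := by decide +kernel
theorem k12 : Nat.beq (runF xO 1) 1 = false := by decide +kernel

variable {F : Type*} [Field F] [Fintype F]

/-- the letters as permutations -/
noncomputable def lt (hF : Fintype.card F = 4) {ω : F} (h : Good ω) (n : ℕ) : Equiv.Perm (F9 → F) := act (coding hF h) (letter n)

theorem ops_ok (hF : Fintype.card F = 4) {ω : F} (h : Good ω) (l : List ℕ) :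
    okOps 18 (ops l) = true ∧ act (coding hF h) (ops l) = (l.map (lt hF h)).prod := by
  induction l with
  | nil => exact ⟨rfl, act_nil _⟩
  | cons a l ih =>
    have h1 : ops (a :: l) = ops l ++ letter a := rfl
    rw [h1]
    refine ⟨okOps_append ih.1 (ok_letter a), ?_⟩
    rw [act_append _ ih.1 (ok_letter a), ih.2]
    rfl

theorem of_rel (hF : Fintype.card F = 4) {ω : F} (h : Good ω) {l : List ℕ} (hl : rel l = true) : (l.map (lt hF h)).prod = 1 := by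
  rw [← (ops_ok hF h l).2, ← act_nil (coding hF h)]
  exact act_eq_of_sameOps _ (ops_ok hF h l).1 rfl hl

theorem lt_mem (hF : Fintype.card F = 4) {ω : F} (h : Good ω) : ∀ n, n < 4 → lt hF h n ∈ HH ω := by
  intro n hn
  have h4 : n = 0 ∨ n = 1 ∨ n = 2 ∨ n = 3 := by omega
  rcases h4 with rfl | rfl | rfl | rfl
  · exact (act_mem _ okx).2 (isRep_of_sameW hF h sx)
  · exact (act_mem _ okw).2 (isRep_of_sameW hF h sw)
  · exact (act_mem _ okv).2 (isRep_of_sameW hF h sv)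
  · exact (act_mem _ oku).2 (isRep_of_sameW hF h su)

theorem rels_perm (hF : Fintype.card F = 4) {ω : F} (h : Good ω) :
    Rels (lt hF h 0) (lt hF h 1) (lt hF h 1 * lt hF h 2) := by
  have e1 : lt hF h 0 * lt hF h 0 = 1 := by simpa using of_rel hF h k1
  have e2 : lt hF h 1 * lt hF h 1 = 1 := by simpa using of_rel hF h k2
  have e3 : lt hF h 2 * lt hF h 2 = 1 := by simpa using of_rel hF h k3
  have e5 := of_rel hF h k5
  have e6 := of_rel hF h k6
  have e7 := of_rel hF h k7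
  have e8 := of_rel hF h k8
  have i1 : (lt hF h 1)⁻¹ = lt hF h 1 := inv_of_sq e2
  have i2 : (lt hF h 2)⁻¹ = lt hF h 2 := inv_of_sq e3
  simp only [List.map_cons, List.map_nil, List.prod_cons, List.prod_nil, mul_one] at e5 e6 e7 e8
  refine ⟨e1, e2, ?_, ?_, ?_, ?_, ?_⟩
  · calc lt hF h 1 * (lt hF h 1 * lt hF h 2) * lt hF h 1 * (lt hF h 1 * lt hF h 2) =
        (lt hF h 1 * lt hF h 1) * lt hF h 2 * (lt hF h 1 * lt hF h 1) * lt hF h 2 := by group
      _ = 1 := by rw [e2, one_mul, mul_one, e3]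
  · simpa only [mul_assoc] using e5
  · simpa only [pow_succ, pow_zero, one_mul, mul_assoc] using e6
  · simpa only [mul_inv_rev, i1, i2, mul_assoc] using e7
  · simpa only [mul_inv_rev, i1, i2, mul_assoc] using e8

theorem rels_u (hF : Fintype.card F = 4) {ω : F} (h : Good ω) :
    lt hF h 3 * lt hF h 3 = 1 ∧ lt hF h 3 * lt hF h 0 * lt hF h 3 = lt hF h 0 ∧ lt hF h 3 * lt hF h 1 * lt hF h 3 = lt hF h 1 ∧
      lt hF h 3 * (lt hF h 1 * lt hF h 2) * lt hF h 3 = (lt hF h 1 * lt hF h 2) ^ 4 := by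
  have e1 : lt hF h 0 * lt hF h 0 = 1 := by simpa using of_rel hF h k1
  have e2 : lt hF h 1 * lt hF h 1 = 1 := by simpa using of_rel hF h k2
  have e3 : lt hF h 2 * lt hF h 2 = 1 := by simpa using of_rel hF h k3
  have e4 : lt hF h 3 * lt hF h 3 = 1 := by simpa using of_rel hF h k4
  have e9 := of_rel hF h k9
  have e10 := of_rel hF h k10
  have e11 := of_rel hF h k11
  have i1 : (lt hF h 1)⁻¹ = lt hF h 1 := inv_of_sq e2
  have i2 : (lt hF h 2)⁻¹ = lt hF h 2 := inv_of_sq e3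
  simp only [List.map_cons, List.map_nil, List.prod_cons, List.prod_nil, mul_one] at e9 e10 e11
  refine ⟨e4, ?_, ?_, ?_⟩
  · rw [← inv_of_sq e1, ← mul_eq_one_iff_eq_inv, inv_of_sq e1]
    simpa only [mul_assoc] using e9
  · rw [← i1, ← mul_eq_one_iff_eq_inv, i1]
    simpa only [mul_assoc] using e10
  · rw [← inv_inv ((lt hF h 1 * lt hF h 2) ^ 4), ← mul_eq_one_iff_eq_inv]
    simpa only [pow_succ, pow_zero, one_mul, mul_inv_rev, i1, i2, mul_assoc] using e11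

theorem lt_zero_ne (hF : Fintype.card F = 4) {ω : F} (h : Good ω) : lt hF h 0 ≠ 1 := by
  intro hh
  have h1 : act (coding hF h) xO (dec ω 1) = dec ω (runF xO 1) := act_dec _ okx (by norm_num)
  have h2 : act (coding hF h) xO = 1 := hh
  rw [h2, Equiv.Perm.one_apply] at h1
  have h3 := (coding hF h).inj _ _ (by norm_num) (runF_lt okx (by norm_num)) h1
  have h4 := k12
  rw [← h3] at h4
  simp at h4

theorem exists_data (hF : Fintype.card F = 4) {ω : F} (hω : ω ^ 2 + ω + 1 = 0) : ∃ X W H U : J3 F ω, Rels X W H ∧ X ≠ 1 ∧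
    U * U = 1 ∧ U * X * U = X ∧ U * W * U = W ∧ U * H * U = H ^ 4 := by
  have h := good hF hω
  let E : threeJ3 F ω ≃* HH ω := (threeJ3 F ω).equivMapOfInjective (toPerm F) toPerm_injective
  let X : HH ω := ⟨lt hF h 0, lt_mem hF h 0 (by norm_num)⟩
  let W : HH ω := ⟨lt hF h 1, lt_mem hF h 1 (by norm_num)⟩
  let V : HH ω := ⟨lt hF h 2, lt_mem hF h 2 (by norm_num)⟩
  let U : HH ω := ⟨lt hF h 3, lt_mem hF h 3 (by norm_num)⟩
  obtain ⟨u1, u2, u3, u4⟩ := rels_u hF h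
  have r : Rels X W (W * V) := Rels.of_inj (HH ω).subtype (HH ω).subtype_injective (rels_perm hF h)
  have u1' : U * U = 1 := Subtype.ext u1
  have u2' : U * X * U = X := Subtype.ext u2
  have u3' : U * W * U = W := Subtype.ext u3
  have u4' : U * (W * V) * U = (W * V) ^ 4 := Subtype.ext u4
  let f : HH ω →* J3 F ω := (QuotientGroup.mk' (Subgroup.center (threeJ3 F ω))).comp E.symm.toMonoidHom
  refine ⟨f X, f W, f (W * V), f U, r.map f, ?_, ?_, ?_, ?_, ?_⟩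
  · intro hh
    have h1 : E.symm X ∈ Subgroup.center (threeJ3 F ω) := (QuotientGroup.eq_one_iff _).1 hh
    have h2 : (E.symm X) ^ 3 = 1 := by
      have h3 : (⟨_, h1⟩ : Subgroup.center (threeJ3 F ω)) ^ Nat.card (Subgroup.center (threeJ3 F ω)) = 1 := pow_card_eq_one'
      rw [H10.J3Simple.card_center hF h] at h3
      exact congrArg Subtype.val h3
    have h3 : X ^ 3 = 1 := by
      apply E.symm.injective
      rw [map_pow, h2, map_one]
    have h4 : X = 1 := by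
      calc X = X ^ 3 := by rw [pow_succ, pow_two, r.xx, one_mul]
        _ = 1 := h3
    exact lt_zero_ne hF h (congrArg Subtype.val h4)
  · rw [← map_mul, u1', map_one]
  · rw [← map_mul, ← map_mul, u2']
  · rw [← map_mul, ← map_mul, u3']
  · rw [← map_mul, ← map_mul, ← map_pow, u4']

end H58.SL16J
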